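import Mathlib
import Cfsg.Agent.LargeExtraspecial.Section
import Cfsg.Agent.LargeExtraspecial.Split
import Cfsg.Agent.LargeExtraspecial.TwoAction
import Cfsg.Agent.LargeExtraspecial.Criterion
import Cfsg.Agent.Eq.Def_Transfer
import Cfsg.Agent.Eq.Def_MonsterType

/-!
The centralizer of an involution of the elementary abelian subgroup in an affine group over the
field with two elements.
-/

set_option autoImplicit false

namespace CfsgLib.LargeExtraspecial.Affine

open Cfsg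
open scoped Matrix

/-- The pair space. -/
abbrev P2 (n : ℕ) : Type := ZMod 2 × (Fin n → ZMod 2)

theorem two_cases : ∀ a : ZMod 2, a = 0 ∨ a = 1 := by decide

/-- Coordinates on an elementary abelian group with a marked involution. -/
theorem exists_coords {G : Type*} [Group G] [Finite G] (U : Subgroup G) (hU : IsElementaryAbelian 2 U)
    {n : ℕ} (hcard : Nat.card ↥U = 2 ^ (n + 1)) {z : ↥U} (hz : z ≠ 1) :
    ∃ e : ↥U ≃ P2 n, (∀ a b, e (a * b) = e a + e b) ∧ e z = (1, 0) := by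
  letI : CommGroup ↥U :=
    { (inferInstance : Group ↥U) with mul_comm := fun a b => hU.1.is_comm.comm a b }
  letI : Module (ZMod 2) (Additive ↥U) := AddCommGroup.zmodModule (fun x => by
    rw [two_nsmul]
    apply Additive.toMul.injective
    exact Subtype.ext (by
      rw [toMul_add, Subgroup.coe_mul, ← pow_two, hU.2 _ (Additive.toMul x).2]; rfl))
  haveI : Module.Finite (ZMod 2) (Additive ↥U) := Module.Finite.of_finite
  have hfr : Module.finrank (ZMod 2) (Additive ↥U) = n + 1 := by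
    have h := Module.natCard_eq_pow_finrank (K := ZMod 2) (V := Additive ↥U)
    rw [← Nat.card_congr (Additive.ofMul : ↥U ≃ Additive ↥U), hcard, Nat.card_zmod] at h
    exact (Nat.pow_right_injective (le_refl 2) h).symm
  obtain ⟨e, he⟩ := exists_split (F := ZMod 2) (z := Additive.ofMul z) hz hfr
  exact ⟨Additive.ofMul.trans e.toEquiv, fun a b => map_add e (Additive.ofMul a) (Additive.ofMul b), he⟩

/-- An affine group with coordinates on its translation subgroup. -/
structure Data (G : Type*) [Group G] (n : ℕ) where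
  /-- The translations. -/
  U : Subgroup G
  /-- The linear part. -/
  M : Subgroup G
  /-- Coordinates. -/
  e : ↥U ≃ P2 n
  normal : U.Normal
  e_mul : ∀ a b, e (a * b) = e a + e b
  sup : U ⊔ M = ⊤
  faithful : ∀ m ∈ M, (∀ u ∈ U, m * u * m⁻¹ = u) → m = 1
  full : ∀ φ : ↥U ≃* ↥U, ∃ m ∈ M, ∀ u : ↥U, ((φ u : ↥U) : G) = m * u * m⁻¹

namespace Data

variable {G : Type*} [Group G] {n : ℕ} (D : Data G n)

/-- The action on coordinates. -/
def α (g : G) (w : P2 n) : P2 n :=
  D.e ⟨g * (D.e.symm w : G) * g⁻¹, D.normal.conj_mem _ (D.e.symm w).2 g⟩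

theorem coe_conj (g : G) (w : P2 n) : ((D.e.symm (D.α g w) : ↥D.U) : G) = g * (D.e.symm w : G) * g⁻¹ := by
  rw [α, Equiv.symm_apply_apply]

theorem symm_add (v w : P2 n) : D.e.symm (v + w) = D.e.symm v * D.e.symm w := by
  apply D.e.injective
  rw [D.e_mul, Equiv.apply_symm_apply, Equiv.apply_symm_apply, Equiv.apply_symm_apply]

theorem symm_zero : D.e.symm 0 = 1 := by
  have h := D.symm_add 0 0
  rw [add_zero] at h
  exact mul_eq_left.1 h.symm

theorem e_one : D.e 1 = 0 := by rw [← D.symm_zero, Equiv.apply_symm_apply]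

theorem α_add (g : G) (v w : P2 n) : D.α g (v + w) = D.α g v + D.α g w := by
  rw [α, α, α, ← D.e_mul]
  refine congrArg D.e (Subtype.ext ?_)
  simp [D.symm_add, mul_assoc]

theorem α_zero (g : G) : D.α g 0 = 0 := by
  have h := D.α_add g 0 0
  rw [add_zero] at h
  exact left_eq_add.1 h

theorem α_mul (g h : G) (w : P2 n) : D.α (g * h) w = D.α g (D.α h w) := by
  rw [α, α]
  refine congrArg D.e (Subtype.ext ?_)
  simp [D.coe_conj, mul_assoc]

theorem α_one (w : P2 n) : D.α 1 w = w := by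
  have : D.α 1 w = D.e (D.e.symm w) := congrArg D.e (Subtype.ext (by simp))
  rw [this, Equiv.apply_symm_apply]

theorem α_inv_cancel (g : G) (w : P2 n) : D.α g⁻¹ (D.α g w) = w := by
  rw [← D.α_mul, inv_mul_cancel, D.α_one]

theorem α_cancel_inv (g : G) (w : P2 n) : D.α g (D.α g⁻¹ w) = w := by
  rw [← D.α_mul, mul_inv_cancel, D.α_one]

theorem conj_eq_of_α {g : G} {u : ↥D.U} (h : D.α g (D.e u) = D.e u) : g * u * g⁻¹ = u := by
  have := D.coe_conj g (D.e u)
  rw [h, Equiv.symm_apply_apply] at this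
  exact this.symm

theorem α_of_mem (hab : ∀ a b : ↥D.U, a * b = b * a) {g : G} (hg : g ∈ D.U) (w : P2 n) :
    D.α g w = w := by
  have : D.α g w = D.e (D.e.symm w) := congrArg D.e (Subtype.ext (by
    have := congrArg Subtype.val (hab ⟨g, hg⟩ (D.e.symm w))
    simp only [Subgroup.coe_mul] at this
    show g * (D.e.symm w : G) * g⁻¹ = (D.e.symm w : G)
    rw [this, mul_inv_cancel_right]))
  rw [this, Equiv.apply_symm_apply]

theorem exists_decomp (g : G) : ∃ u ∈ D.U, ∃ m ∈ D.M, g = u * m := by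
  haveI := D.normal
  have h : g ∈ D.U ⊔ D.M := D.sup ▸ Subgroup.mem_top g
  obtain ⟨u, hu, m, hm, e⟩ := Subgroup.mem_sup_of_normal_left.1 h
  exact ⟨u, hu, m, hm, e.symm⟩

theorem eq_of_α {m m' : G} (hm : m ∈ D.M) (hm' : m' ∈ D.M) (h : ∀ w, D.α m w = D.α m' w) : m = m' := by
  rw [← inv_mul_eq_one]
  refine D.faithful _ (D.M.mul_mem (D.M.inv_mem hm) hm') fun u hu => ?_
  exact D.conj_eq_of_α (u := ⟨u, hu⟩) (by rw [D.α_mul, ← h, D.α_inv_cancel])

theorem exists_lift (φ : P2 n ≃+ P2 n) : ∃ m ∈ D.M, ∀ w, D.α m w = φ w := by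
  let ψ : ↥D.U ≃* ↥D.U :=
    { toFun := fun u => D.e.symm (φ (D.e u))
      invFun := fun u => D.e.symm (φ.symm (D.e u))
      left_inv := fun u => by simp
      right_inv := fun u => by simp
      map_mul' := fun a b => by rw [D.e_mul, map_add, D.symm_add] }
  obtain ⟨m, hm, hψ⟩ := D.full ψ
  refine ⟨m, hm, fun w => ?_⟩
  have : D.α m w = D.e (ψ (D.e.symm w)) := congrArg D.e (Subtype.ext (hψ _).symm)
  rw [this]
  simp [ψ]

/-- The coordinate transvection. -/
def shear (n : ℕ) (c : Fin n → ZMod 2) : P2 n ≃+ P2 n where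
  toFun w := (w.1 + c ⬝ᵥ w.2, w.2)
  invFun w := (w.1 + c ⬝ᵥ w.2, w.2)
  left_inv w := Prod.ext (by
    show w.1 + c ⬝ᵥ w.2 + c ⬝ᵥ w.2 = w.1
    rw [add_assoc, CharTwo.add_self_eq_zero, add_zero]) rfl
  right_inv w := Prod.ext (by
    show w.1 + c ⬝ᵥ w.2 + c ⬝ᵥ w.2 = w.1
    rw [add_assoc, CharTwo.add_self_eq_zero, add_zero]) rfl
  map_add' v w := Prod.ext (by
    show v.1 + w.1 + c ⬝ᵥ (v.2 + w.2) = v.1 + c ⬝ᵥ v.2 + (w.1 + c ⬝ᵥ w.2)
    rw [dotProduct_add]; ring) rfl

/-- Transvections fixing the marked vector. -/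
noncomputable def tau (c : Fin n → ZMod 2) : G := (D.exists_lift (shear n c)).choose

theorem tau_mem (c : Fin n → ZMod 2) : D.tau c ∈ D.M := (D.exists_lift (shear n c)).choose_spec.1

theorem α_tau (c : Fin n → ZMod 2) (w : P2 n) : D.α (D.tau c) w = (w.1 + c ⬝ᵥ w.2, w.2) :=
  (D.exists_lift (shear n c)).choose_spec.2 w

/-- The linear group on the complement. -/
noncomputable def diag (n : ℕ) (A : Matrix.GeneralLinearGroup (Fin n) (ZMod 2)) : P2 n ≃+ P2 n where
  toFun w := (w.1, (A : Matrix (Fin n) (Fin n) (ZMod 2)) *ᵥ w.2)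
  invFun w := (w.1, ((A⁻¹ : Matrix.GeneralLinearGroup (Fin n) (ZMod 2)) : Matrix (Fin n) (Fin n) (ZMod 2)) *ᵥ w.2)
  left_inv w := Prod.ext rfl (by simp [Matrix.mulVec_mulVec])
  right_inv w := Prod.ext rfl (by simp [Matrix.mulVec_mulVec])
  map_add' v w := Prod.ext rfl (by simp [Matrix.mulVec_add])

/-- The lift of the linear group. -/
noncomputable def kHom : Matrix.GeneralLinearGroup (Fin n) (ZMod 2) →* G :=
  MonoidHom.mk' (fun A => (D.exists_lift (diag n A)).choose) fun A B => by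
    refine D.eq_of_α (D.exists_lift (diag n (A * B))).choose_spec.1
      (D.M.mul_mem (D.exists_lift (diag n A)).choose_spec.1 (D.exists_lift (diag n B)).choose_spec.1)
      fun w => ?_
    rw [D.α_mul, (D.exists_lift (diag n (A * B))).choose_spec.2, (D.exists_lift (diag n B)).choose_spec.2,
      (D.exists_lift (diag n A)).choose_spec.2]
    exact Prod.ext rfl (by
      show ((A * B : Matrix.GeneralLinearGroup (Fin n) (ZMod 2)) : Matrix (Fin n) (Fin n) (ZMod 2)) *ᵥ w.2 = _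
      rw [Units.val_mul, ← Matrix.mulVec_mulVec]; rfl)

theorem α_kHom (A : Matrix.GeneralLinearGroup (Fin n) (ZMod 2)) (w : P2 n) :
    D.α (D.kHom A) w = (w.1, (A : Matrix (Fin n) (Fin n) (ZMod 2)) *ᵥ w.2) :=
  (D.exists_lift (diag n A)).choose_spec.2 w

/-- Fixing the marked vector and trivial modulo it. -/
def core : Subgroup G where
  carrier := {g | D.α g (1, 0) = (1, 0) ∧ ∀ w, (D.α g w).2 = w.2}
  one_mem' := ⟨D.α_one _, fun w => by rw [D.α_one]⟩
  mul_mem' {a b} ha hb := ⟨by rw [D.α_mul, hb.1, ha.1], fun w => by rw [D.α_mul, ha.2, hb.2]⟩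
  inv_mem' {a} ha := ⟨by conv_lhs => rw [← ha.1, D.α_inv_cancel],
    fun w => by conv_rhs => rw [← D.α_cancel_inv a w, ha.2]⟩

theorem mem_core {g : G} : g ∈ D.core ↔ D.α g (1, 0) = (1, 0) ∧ ∀ w, (D.α g w).2 = w.2 := Iff.rfl

theorem snd_congr {g : G} (hg : D.α g (1, 0) = (1, 0)) {v w : P2 n} (h : v.2 = w.2) :
    (D.α g v).2 = (D.α g w).2 := by
  have hv : v = (v.1 - w.1, 0) + w := Prod.ext (by simp) (by simp [h])
  have h0 : (D.α g (v.1 - w.1, 0)).2 = 0 := by
    rcases two_cases (v.1 - w.1) with e | e <;> rw [e]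
    · rw [show ((0 : ZMod 2), (0 : Fin n → ZMod 2)) = 0 from rfl, D.α_zero]; rfl
    · rw [hg]
  rw [hv, D.α_add, Prod.snd_add, h0, zero_add]

theorem exists_shear {g : G} (hg : g ∈ D.core) : ∃ c, ∀ w, D.α g w = (w.1 + c ⬝ᵥ w.2, w.2) := by
  classical
  refine ⟨fun i => (D.α g (0, Pi.single i 1)).1, fun w => Prod.ext ?_ ((D.mem_core.1 hg).2 w)⟩
  let f : P2 n →+ ZMod 2 := AddMonoidHom.mk' (fun v => (D.α g v).1) fun a b => by rw [D.α_add]; rfl
  have hw : w = (w.1, 0) + ∑ i, ((0 : ZMod 2), Pi.single i (w.2 i)) := by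
    refine Prod.ext ?_ ?_
    · simp [Prod.fst_sum]
    · simp [Prod.snd_sum, Finset.univ_sum_single]
  show f w = _
  conv_lhs => rw [hw]
  rw [map_add, map_sum, dotProduct]
  congr 1
  · rcases two_cases w.1 with e | e <;> rw [e]
    · rw [show ((0 : ZMod 2), (0 : Fin n → ZMod 2)) = 0 from rfl, map_zero]
    · exact congrArg Prod.fst (D.mem_core.1 hg).1
  · refine Finset.sum_congr rfl fun i _ => ?_
    rcases two_cases (w.2 i) with e | e <;> rw [e]
    · rw [Pi.single_zero, show ((0 : ZMod 2), (0 : Fin n → ZMod 2)) = 0 from rfl, map_zero, mul_zero]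
    · rw [mul_one]; rfl

theorem α_eq_of_mul (hab : ∀ a b : ↥D.U, a * b = b * a) {u m : G} (hu : u ∈ D.U) (w : P2 n) :
    D.α (u * m) w = D.α m w := by rw [D.α_mul, D.α_of_mem hab hu]

theorem mem_U_of_α (hab : ∀ a b : ↥D.U, a * b = b * a) {g : G} (h : ∀ w, D.α g w = w) :
    g ∈ D.U := by
  obtain ⟨u, hu, m, hm, rfl⟩ := D.exists_decomp g
  have : m = 1 := D.eq_of_α hm D.M.one_mem fun w => by
    rw [D.α_one, ← D.α_eq_of_mul hab hu, h]
  rwa [this, mul_one]

theorem exists_linear {g : G} (hg : D.α g (1, 0) = (1, 0)) :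
    ∃ A : Matrix.GeneralLinearGroup (Fin n) (ZMod 2),
      ∀ w, (D.α g w).2 = (A : Matrix (Fin n) (Fin n) (ZMod 2)) *ᵥ w.2 := by
  have hgi : D.α g⁻¹ (1, 0) = (1, 0) := by conv_lhs => rw [← hg, D.α_inv_cancel]
  let L : G → ((Fin n → ZMod 2) →ₗ[ZMod 2] (Fin n → ZMod 2)) := fun h =>
    AddMonoidHom.toZModLinearMap 2 (AddMonoidHom.mk' (fun x => (D.α h (0, x)).2) fun x y => by
      rw [← Prod.snd_add, ← D.α_add, Prod.mk_add_mk, add_zero])
  have hinv : ∀ h, D.α h (1, 0) = (1, 0) → (L h).comp (L h⁻¹) = LinearMap.id := fun h hh =>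
    LinearMap.ext fun x => by
      show (D.α h (0, (D.α h⁻¹ (0, x)).2)).2 = x
      rw [D.snd_congr hh (v := (0, (D.α h⁻¹ (0, x)).2)) (w := D.α h⁻¹ (0, x)) rfl, D.α_cancel_inv]
  refine ⟨⟨LinearMap.toMatrix' (L g), LinearMap.toMatrix' (L g⁻¹), ?_, ?_⟩, fun w => ?_⟩
  · rw [← LinearMap.toMatrix'_comp, hinv g hg, LinearMap.toMatrix'_id]
  · have := hinv g⁻¹ hgi
    rw [inv_inv] at this
    rw [← LinearMap.toMatrix'_comp, this, LinearMap.toMatrix'_id]
  · rw [← Matrix.toLin'_apply, Matrix.toLin'_toMatrix']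
    exact D.snd_congr hg (v := w) (w := (0, w.2)) rfl

theorem kHom_injective : Function.Injective D.kHom := by
  intro A B h
  refine Units.ext (Matrix.toLin'.injective (LinearMap.ext fun x => ?_))
  rw [Matrix.toLin'_apply, Matrix.toLin'_apply]
  have h' := congrArg (fun g => (D.α g (0, x)).2) h
  simpa only [D.α_kHom] using h'

theorem card_core (hab : ∀ a b : ↥D.U, a * b = b * a) (hUM : D.U ⊓ D.M = ⊥)
    (hcard : Nat.card ↥D.U = 2 ^ (n + 1)) : Nat.card ↥D.core = 2 ^ (2 * n + 1) := by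
  have hmem : ∀ (u : ↥D.U) c, (u : G) * D.tau c ∈ D.core := fun u c =>
    ⟨by rw [D.α_eq_of_mul hab u.2, D.α_tau]; simp,
      fun w => by rw [D.α_eq_of_mul hab u.2, D.α_tau]⟩
  let F : ↥D.U × (Fin n → ZMod 2) → ↥D.core := fun p => ⟨p.1 * D.tau p.2, hmem _ _⟩
  have hF : Function.Bijective F := by
    refine ⟨?_, ?_⟩
    · rintro ⟨u, c⟩ ⟨v, d⟩ h
      have h' : (u : G) * D.tau c = v * D.tau d := congrArg Subtype.val h
      have hcd : c = d := by
        funext i
        have := congrArg (fun g => (D.α g (0, Pi.single i 1)).1) h'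
        simpa [D.α_eq_of_mul hab u.2, D.α_eq_of_mul hab v.2, D.α_tau] using this
      subst hcd
      exact Prod.ext (Subtype.ext (mul_right_cancel h')) rfl
    · rintro ⟨g, hg⟩
      obtain ⟨c, hc⟩ := D.exists_shear hg
      obtain ⟨u, hu, m, hm, rfl⟩ := D.exists_decomp g
      have : m = D.tau c := D.eq_of_α hm (D.tau_mem c) fun w => by
        rw [D.α_tau, ← hc, D.α_eq_of_mul hab hu]
      exact ⟨⟨⟨u, hu⟩, c⟩, Subtype.ext (congrArg (u * ·) this.symm)⟩
  rw [← Nat.card_congr (Equiv.ofBijective F hF), Nat.card_prod, hcard, Nat.card_fun,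
    Nat.card_zmod, Nat.card_fin, ← pow_add]
  congr 1
  omega

end Data

end CfsgLib.LargeExtraspecial.Affine
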