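import Mathlib
import Cfsg.Agent.LargeExtraspecial.Pair
import Cfsg.Agent.LargeExtraspecial.Structure

/-!
The group `X = ⟨Q, U⟩` generated by two extraspecial subgroups with central involutions `z ∈ U`
and `s ∈ Q`: `R = C_Q(s) C_U(z)` is `X ∩ C(⟨z, s⟩)` and `X / R ≅ S₃`.
-/

set_option autoImplicit false

namespace CfsgLib.LargeExtraspecial

open Cfsg
open scoped commutatorElement

variable {G : Type*} [Group G]

/-- A symmetric pair of extraspecial subgroups. -/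
structure Linked (Q U : Subgroup G) (z s : G) : Prop where
  left : Setting Q z
  right : Setting U s
  s_mem : s ∈ Q
  z_mem : z ∈ U
  ne : z ≠ s

theorem linked_of_large [Finite G] {Q : Subgroup G} {z : G} (hQ : IsLargeExtraspecial Q)
    (hz : zOf Q = Subgroup.zpowers z) {w : ℕ} (hw : 2 ≤ w)
    (hcard : Nat.card ↥Q = 2 ^ (2 * w + 1)) {g : G}
    (hgH : g ∉ Subgroup.centralizer ({z} : Set G)) (hgQ : g * z * g⁻¹ ∈ Q) :
    Linked Q (Q.map (MulAut.conj g).toMonoidHom) z (g * z * g⁻¹) := by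
  have h := setting_of_large hQ hz
  have hne : g * z * g⁻¹ ≠ z := fun e =>
    hgH (Subgroup.mem_centralizer_singleton_iff.2 (mul_inv_eq_iff_eq_mul.1 e))
  have h32 : 32 ≤ Nat.card ↥Q := by
    rw [hcard]
    calc 32 = 2 ^ (2 * 2 + 1) := by norm_num
      _ ≤ 2 ^ (2 * w + 1) := Nat.pow_le_pow_right (by norm_num) (by omega)
  exact ⟨h, h.conj g, hgQ, mem_conj_of_conj_mem h h32 g hgQ hne, fun e => hne e.symm⟩

namespace Linked

variable {Q U : Subgroup G} {z s : G}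

theorem symm (P : Linked Q U z s) : Linked U Q s z :=
  ⟨P.right, P.left, P.z_mem, P.s_mem, P.ne.symm⟩

theorem zs (P : Linked Q U z s) : z * s = s * z := (P.left.comm P.s_mem).symm

theorem s_not_mem_zOf (P : Linked Q U z s) : s ∉ zOf Q :=
  P.left.not_mem_zOf P.right.z_ne_one P.ne.symm

theorem zs_ne (P : Linked Q U z s) : z * s ≠ z ∧ z * s ≠ s ∧ z * s ≠ 1 :=
  ⟨fun e => P.right.z_ne_one (mul_eq_left.1 e), fun e => P.left.z_ne_one (mul_eq_right.1 e),
    fun e => P.ne (by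
      calc z = z * (s * s) := by rw [P.right.z_mul_z, mul_one]
        _ = s := by rw [← mul_assoc, e, one_mul])⟩

theorem q_act (P : Linked Q U z s) {q : G} (hq : q ∈ Q) (hqs : q * s ≠ s * q) :
    q * s * q⁻¹ = z * s := by
  rcases conj_mem_two P.left.extraspecial P.left.mem_iff hq P.s_mem with e | e
  · exact absurd (mul_inv_eq_iff_eq_mul.1 e) hqs
  · exact e

/-- Elements of `Q` are, up to `C_Q(s)`, only `1` and a fixed element. -/
theorem q_coset (P : Linked Q U z s) {q₀ q : G} (hq₀ : q₀ ∈ Q) (hq₀s : q₀ * s ≠ s * q₀)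
    (hq : q ∈ Q) : q * s = s * q ∨ (q₀⁻¹ * q) * s = s * (q₀⁻¹ * q) := by
  by_cases h : q * s = s * q
  · exact Or.inl h
  · right
    calc q₀⁻¹ * q * s = q₀⁻¹ * (q * s * q⁻¹) * q := by group
      _ = q₀⁻¹ * (q₀ * s * q₀⁻¹) * q := by rw [P.q_act hq h, P.q_act hq₀ hq₀s]
      _ = s * (q₀⁻¹ * q) := by group

/-- `C_Q(s) C_U(z)`. -/
theorem core_le_centralizer (P : Linked Q U z s) {x : G}
    (hx : x ∈ (Q ⊓ Subgroup.centralizer ({s} : Set G)) ⊔ (U ⊓ Subgroup.centralizer ({z} : Set G))) :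
    x * z = z * x ∧ x * s = s * x := by
  have : (Q ⊓ Subgroup.centralizer ({s} : Set G)) ⊔ (U ⊓ Subgroup.centralizer ({z} : Set G)) ≤
      Subgroup.centralizer ({z} : Set G) ⊓ Subgroup.centralizer ({s} : Set G) := by
    refine sup_le (fun a ha => ⟨?_, ha.2⟩) (fun b hb => ⟨hb.2, ?_⟩)
    · exact Subgroup.mem_centralizer_singleton_iff.2 (P.left.comm ha.1)
    · exact Subgroup.mem_centralizer_singleton_iff.2 (P.right.comm hb.1)
  exact ⟨Subgroup.mem_centralizer_singleton_iff.1 (this hx).1,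
    Subgroup.mem_centralizer_singleton_iff.1 (this hx).2⟩

theorem A_normalizes (P : Linked Q U z s) {a b : G} (ha : a ∈ Q) (has : a * s = s * a)
    (hb : b ∈ U) (hbz : b * z = z * b) : a * b * a⁻¹ ∈ U ∧ (a * b * a⁻¹) * z = z * (a * b * a⁻¹) := by
  refine ⟨(P.right.normalized a has b).1 hb, ?_⟩
  have haz := P.left.comm ha
  calc a * b * a⁻¹ * z = a * b * (a⁻¹ * z) := by group
    _ = a * (b * z) * a⁻¹ := by rw [show a⁻¹ * z = z * a⁻¹ from P.left.comm (Q.inv_mem ha)]; group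
    _ = z * (a * b * a⁻¹) := by rw [hbz, ← mul_assoc, haz]; group

/-- Elements of the core are products. -/
theorem mem_core (P : Linked Q U z s) {x : G}
    (hx : x ∈ (Q ⊓ Subgroup.centralizer ({s} : Set G)) ⊔ (U ⊓ Subgroup.centralizer ({z} : Set G))) :
    ∃ a b, a ∈ Q ∧ a * s = s * a ∧ b ∈ U ∧ b * z = z * b ∧ x = a * b := by
  have hn : (Q ⊓ Subgroup.centralizer ({s} : Set G)) ≤
      Subgroup.normalizer ((U ⊓ Subgroup.centralizer ({z} : Set G) : Subgroup G) : Set G) := by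
    refine Subgroup.le_normalizer_iff.2 fun a ha b hb => ?_
    obtain ⟨h1, h2⟩ := P.A_normalizes ha.1 (Subgroup.mem_centralizer_singleton_iff.1 ha.2) hb.1
      (Subgroup.mem_centralizer_singleton_iff.1 hb.2)
    exact ⟨h1, Subgroup.mem_centralizer_singleton_iff.2 h2⟩
  rw [← SetLike.mem_coe, Subgroup.coe_mul_of_left_le_normalizer_right _ _ hn] at hx
  obtain ⟨a, ha, b, hb, rfl⟩ := hx
  exact ⟨a, b, ha.1, Subgroup.mem_centralizer_singleton_iff.1 ha.2, hb.1,
    Subgroup.mem_centralizer_singleton_iff.1 hb.2, rfl⟩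

theorem mem_core_left {a : G} (ha : a ∈ Q) (has : a * s = s * a) :
    a ∈ (Q ⊓ Subgroup.centralizer ({s} : Set G)) ⊔ (U ⊓ Subgroup.centralizer ({z} : Set G)) :=
  (le_sup_left : (Q ⊓ Subgroup.centralizer ({s} : Set G)) ≤ _)
    (⟨ha, Subgroup.mem_centralizer_singleton_iff.2 has⟩ : a ∈ Q ⊓ Subgroup.centralizer ({s} : Set G))

theorem mem_core_right {b : G} (hb : b ∈ U) (hbz : b * z = z * b) :
    b ∈ (Q ⊓ Subgroup.centralizer ({s} : Set G)) ⊔ (U ⊓ Subgroup.centralizer ({z} : Set G)) :=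
  (le_sup_right : (U ⊓ Subgroup.centralizer ({z} : Set G)) ≤ _)
    (⟨hb, Subgroup.mem_centralizer_singleton_iff.2 hbz⟩ : b ∈ U ⊓ Subgroup.centralizer ({z} : Set G))

/-- `Q` normalizes the core. -/
theorem q_normalizes (P : Linked Q U z s) {q x : G} (hq : q ∈ Q)
    (hx : x ∈ (Q ⊓ Subgroup.centralizer ({s} : Set G)) ⊔ (U ⊓ Subgroup.centralizer ({z} : Set G))) :
    q * x * q⁻¹ ∈ (Q ⊓ Subgroup.centralizer ({s} : Set G)) ⊔ (U ⊓ Subgroup.centralizer ({z} : Set G)) := by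
  obtain ⟨hxz, hxs⟩ := P.core_le_centralizer hx
  -- `q x q⁻¹ x⁻¹` lies in `C_Q(s)`
  have hd : q * x * q⁻¹ * x⁻¹ ∈ Q := by
    rw [show q * x * q⁻¹ * x⁻¹ = q * (x * q⁻¹ * x⁻¹) by group]
    exact Q.mul_mem hq ((P.left.normalized x hxz _).1 (Q.inv_mem hq))
  have hqx : Commute (q * x * q⁻¹) s := by
    have h1 : Commute x (q⁻¹ * s * q⁻¹⁻¹) := by
      rcases conj_mem_two P.left.extraspecial P.left.mem_iff (Q.inv_mem hq) P.s_mem with e | e <;>
        rw [e]
      · exact hxs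
      · exact Commute.mul_right hxz hxs
    have := h1.map (MulAut.conj q)
    simpa [mul_assoc] using this
  have hds : (q * x * q⁻¹ * x⁻¹) * s = s * (q * x * q⁻¹ * x⁻¹) :=
    (Commute.mul_left hqx (Commute.inv_left hxs)).eq
  have := Subgroup.mul_mem _ (mem_core_left (U := U) (z := z) hd hds) hx
  simpa using this

theorem core_symm :
    (Q ⊓ Subgroup.centralizer ({s} : Set G)) ⊔ (U ⊓ Subgroup.centralizer ({z} : Set G)) =
      (U ⊓ Subgroup.centralizer ({z} : Set G)) ⊔ (Q ⊓ Subgroup.centralizer ({s} : Set G)) :=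
  sup_comm _ _

theorem u_normalizes (P : Linked Q U z s) {u x : G} (hu : u ∈ U)
    (hx : x ∈ (Q ⊓ Subgroup.centralizer ({s} : Set G)) ⊔ (U ⊓ Subgroup.centralizer ({z} : Set G))) :
    u * x * u⁻¹ ∈ (Q ⊓ Subgroup.centralizer ({s} : Set G)) ⊔ (U ⊓ Subgroup.centralizer ({z} : Set G)) := by
  rw [sup_comm] at hx ⊢
  exact P.symm.q_normalizes hu hx

end Linked

end CfsgLib.LargeExtraspecial
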